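import Cfsg.Agent.Mult.Slices
import Cfsg.Agent.Fi22C.Tabs

set_option autoImplicit false
set_option Elab.async false
set_option maxRecDepth 100000
set_option linter.all false

namespace Cfsg.Agent.Fi22C
open Cfsg.Agent.CGT

open Cfsg.Agent.Mult

noncomputable def u5_D : PC := ⟨5, 2, 3, 22,
  [[0, 8], [0, 0]],
  [0, 0],
  [(2, 1, 3), (2, 8, 0x24)], 9, 0x1000100000001⟩
noncomputable def u5_ds : List (List ℕ) := [[12, 6, 8, 10, 4, 6, 8, 2, 4, 6, 14, 16, 14, 10, 6, 8, 2, 4, 6, 14, 12, 10, 8, 6, 4, 2, 16, 10, 2, 0, 4, 2, 6, 8, 14, 6, 4, 6, 14, 8, 6, 2, 4, 0, 2, 12, 10, 8, 6, 14, 16, 4, 6, 14, 12, 10, 8, 6, 4, 16, 14, 6, 8, 10, 12, 10, 8, 6, 0, 4, 6, 8, 14, 6, 4, 2, 0, 4, 6, 8, 14, 6, 4, 2, 4, 6, 14, 8, 6, 4, 0, 2, 8, 14, 4, 10, 16, 12], [2, 10, 16, 14, 4, 6, 8, 0, 2, 4,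 6, 14, 16, 10, 6, 8, 2, 4, 6, 14, 12, 10, 8, 6, 4, 2, 16, 6, 8, 4, 6, 14, 10, 8, 6, 4, 0, 14, 6, 10, 14, 8, 6, 10, 12, 16, 10, 8, 4, 6, 8, 10, 14, 16, 2, 0, 4, 2, 6, 8, 14, 6, 4, 6, 14, 8, 6, 2, 4, 0, 2, 16, 14, 2, 0, 4, 2, 6, 8, 14, 6, 4, 6, 14, 8, 6, 2, 4, 0, 2, 16, 14, 10, 8, 6, 4, 14, 6, 12, 2, 10], [14, 0, 10, 4, 10, 8, 2, 0, 4, 6, 8, 14, 6, 4, 2, 4, 6, 14, 8, 6, 4, 0, 2, 4, 6, 14, 8, 6, 4, 0, 12, 10, 8, 6, 14, 4, 6, 8, 10, 12, 14, 16, 2, 0, 4, 2, 6, 8, 14, 6, 4, 6, 14, 8, 6, 2, 4, 0, 2, 10, 8, 6, 14, 4, 8, 6, 4, 10, 8, 2, 4, 6, 8, 10, 12, 14, 6, 4, 2, 8, 6, 10, 8, 16, 14, 6, 4, 2, 8, 6, 4, 10, 8, 14, 6, 4, 2, 8, 16, 14, 6, 12, 4, 8, 6, 14, 2]]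
noncomputable def u5_c : Mult.Cert := ⟨42, 19, [[], []],
  [],
  [[0xf, 0x19], [0, 7]]⟩
theorem u5_all : allB u5_D u5_c [.fus 2 [1, 0] [0, 1], .fus 2 [0, 0, 0, 0, 0] [], .fus 2 [1, 1, 1, 1, 1] []] 12 m_ts u5_ds [1, 5, 8, 86, 13, 154, 59, 637, 0] [(72, [8]), (0, [0x11])] = true := by decide +kernel
theorem u5_pb {G : Type*} [Group G] [Finite G] {φ : G →* Equiv.Perm ℕ} {γ : ℕ → G}
    (M : Model φ γ 12 m_ns m_ts) (hB : IsBase φ ⊤ [1, 5, 8, 86, 13, 154, 59, 637, 0]) (hN : Nat.card G = 64561751654400) : PBound G 5 0 :=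
  pbound_all M hB hN (by decide +kernel) (by decide +kernel) u5_all

end Cfsg.Agent.Fi22C
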