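import Cfsg.Agent.Mult.Slices
import Cfsg.Agent.Fi22C.Mulc2T0

set_option autoImplicit false
set_option Elab.async false
set_option maxRecDepth 100000
set_option linter.all false

namespace Cfsg.Agent.Fi22C
open Cfsg.Agent.CGT

open Cfsg.Agent.Mult

theorem mulc2_proj (hR : Holds (lp l0_ns) RR) : Proj (yM 2 l0_ns mulc2_C) (zM 2 mulc2_U) 2 RR mulc2_a :=
  have hq : 2 = 2 ∨ 2 = 3 ∨ 2 = 4 := by decide
  proj_mono hq l0_v hR (MonR.zero.step hq l0_v mulc2_m0) mulc2_i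

end Cfsg.Agent.Fi22C
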