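import Cfsg.Agent.Mult.Slices
import Cfsg.Agent.Fi22C.Mulc3D

set_option autoImplicit false
set_option Elab.async false
set_option maxRecDepth 100000
set_option linter.all false

namespace Cfsg.Agent.Fi22C
open Cfsg.Agent.CGT

open Cfsg.Agent.Mult

set_option Elab.async false
theorem mulc3_p3_0 : slicesB 16 mulc3_ns (nth [] RR 45) 0 10 = true := by decide +kernel
theorem mulc3_p3_10 : slicesB 16 mulc3_ns (nth [] RR 45) 10 6 = true := by decide +kernel
theorem mulc3_p4_0 : slicesB 16 mulc3_ns (nth [] RR 46) 0 15 = true := by decide +kernel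

end Cfsg.Agent.Fi22C
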