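import Cfsg.Agent.Mult.Slices
import Cfsg.Agent.Fi22C.Mulc3T0
import Cfsg.Agent.Fi22C.Mulc3T1
import Cfsg.Agent.Fi22C.Mulc3T2
import Cfsg.Agent.Fi22C.Mulc3T3

set_option autoImplicit false
set_option Elab.async false
set_option maxRecDepth 100000
set_option linter.all false

namespace Cfsg.Agent.Fi22C
open Cfsg.Agent.CGT

open Cfsg.Agent.Mult

theorem mulc3_p : Holds (lp mulc3_ns) RR :=
  (forall_dropL (a := 0) (m := 18) (holdsB_sound mulc3_v mulc3_p0) (forall_dropL (a := 18) (m := 14) (holdsB_sound mulc3_v mulc3_p1) (forall_dropL (a := 32) (m := 13) (holdsB_sound mulc3_v mulc3_p2) (forall_dropL (a := 45) (m := 1) (Slices.holds mulc3_v ((Slices.zero.step mulc3_p3_0).step mulc3_p3_10)) (forall_dropL (a := 46) (m := 1) (Slices.holds mulc3_v ((Slices.zero.step mulc3_p4_0).step mulc3_p4_15)) (forall_dropL (a := 47) (m := 1) (Slices.holds mulc3_v ((Slices.zero.step mulc3_p5_0).step mulc3_p5_15)) (forall_dropL_end (l := RR) (a := 48) (by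 decide +kernel))))))))
theorem mulc3_proj : Proj (yM 3 mulc3_ns mulc3_C) (zM 3 mulc3_U) 3 RR mulc3_a :=
  have hq : 3 = 2 ∨ 3 = 3 ∨ 3 = 4 := by decide
  proj_mono hq mulc3_v mulc3_p (MonR.zero.step hq mulc3_v mulc3_m0) mulc3_i

end Cfsg.Agent.Fi22C
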